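import Cfsg.Agent.H356.AQ.Quot
import Cfsg.Agent.H40.OC.Fin
import Cfsg.Agent.Nodes.RGDTypeA

/-!
# S4884 : the frame of `PGL_{n+1}(F)` (helper40)

* `TT` : the diagonal matrices in `GL_{n+1}(F)`; `X` : the root groups;
* `rgl` : the root group datum of `GL_{n+1}(F)` with torus `TT`; `gg_top`; `dgl : Adj TT X (fun _ => F)`;
* `anti_gl` : the transpose; `ker_gl : Ker dgl π`, `π : GL_{n+1}(F) → PGL_{n+1}(F)`.
-/

set_option autoImplicit false
set_option linter.unusedSectionVars false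

namespace Cfsg.Agent.H40.PGL

open Matrix CoxeterSystem Cfsg.Agent.ChevalleyStructure.CoxeterGeom Cfsg.Agent.Tits.Roots
open Cfsg.Agent.Nodes.Reps Cfsg.Agent.Nodes.BNOf Cfsg.Agent.Nodes.RGDLib Cfsg.Agent.Nodes.RootsA
open Cfsg.Agent.Nodes.Bruhat
open Cfsg.Agent.LieRecognition.BNCox (cA)
open Cfsg.Agent.TitsThree.KSideA (tv tv_of_ne tv_add tv_zero tv_neg tv_comm tv_commute diag2n_eq)
open Cfsg.Agent.Nodes.RGDTypeA
open Cfsg.Agent.H148.GG Cfsg.Agent.H356.AQ
open scoped commutatorElement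

section Mat

variable {ι F : Type*} [Field F] [DecidableEq ι] [Fintype ι]

/-- the diagonal matrices -/
def dg (ι F : Type*) [Field F] [DecidableEq ι] [Fintype ι] : (ι → Fˣ) →* GL ι F where
  toFun d := ⟨diagonal fun i => (d i : F), diagonal fun i => ((d i)⁻¹ : Fˣ),
    by rw [diagonal_mul_diagonal]; simp, by rw [diagonal_mul_diagonal]; simp⟩
  map_one' := by
    apply Units.ext
    exact diagonal_one
  map_mul' d e := by
    apply Units.ext
    exact (diagonal_mul_diagonal (fun i => (d i : F)) (fun i => (e i : F))).symm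

theorem dg_val (d : ι → Fˣ) : (dg ι F d).1 = diagonal fun i => (d i : F) := rfl

theorem dg_inv_val (d : ι → Fˣ) : ((dg ι F d)⁻¹).1 = diagonal fun i => ((d i)⁻¹ : Fˣ).1 := rfl

theorem dg_inj : Function.Injective (dg ι F) := by
  intro d e h
  funext i
  apply Units.ext
  have h1 := congrArg (fun g : GL ι F => g.1 i i) h
  simpa [dg_val] using h1

/-- the diagonal matrices -/
def TT (ι F : Type*) [Field F] [DecidableEq ι] [Fintype ι] : Subgroup (GL ι F) := (dg ι F).range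

theorem dg_mem (d : ι → Fˣ) : dg ι F d ∈ TT ι F := ⟨d, rfl⟩

/-- the inclusion of `SL` -/
abbrev lg : SpecialLinearGroup ι F →* GL ι F := SpecialLinearGroup.toGL

theorem lg_val (g : SpecialLinearGroup ι F) : (lg g).1 = g.1 := rfl

theorem lg_inj : Function.Injective (lg (ι := ι) (F := F)) := by
  intro g k h
  apply Subtype.ext
  exact congrArg Units.val h

/-- conjugation of a root element by a diagonal matrix -/
theorem dg_conj_tv {a b : ι} (hab : a ≠ b) (d : ι → Fˣ) (t : F) :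
    dg ι F d * lg (tv a b t) * (dg ι F d)⁻¹ = lg (tv a b ((d a : F) * t * ((d b)⁻¹ : Fˣ).1)) := by
  apply Units.ext
  rw [Units.val_mul, Units.val_mul, lg_val, lg_val, tv_val hab, tv_val hab, dg_val, dg_inv_val]
  ext i j
  rw [mul_diagonal, diagonal_mul, Matrix.add_apply, Matrix.add_apply, Matrix.one_apply, Matrix.single_apply,
    Matrix.single_apply]
  by_cases hij : i = j
  · subst hij
    have h1 : ¬ (a = i ∧ b = i) := fun h => hab (h.1.trans h.2.symm)
    rw [if_pos rfl, if_neg h1, if_neg h1, add_zero, mul_one, Units.mul_inv]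
  · rw [if_neg hij, zero_add, zero_add]
    by_cases h1 : a = i ∧ b = j
    · obtain ⟨rfl, rfl⟩ := h1
      rw [if_pos ⟨rfl, rfl⟩, if_pos ⟨rfl, rfl⟩]
    · rw [if_neg h1, if_neg h1, mul_zero, zero_mul]

/-- conjugation of a diagonal matrix by a monomial matrix -/
theorem mono_conj_dg {σ : Equiv.Perm ι} {g : SpecialLinearGroup ι F} (hg : Mono σ g) (d : ι → Fˣ) :
    lg g * dg ι F d * (lg g)⁻¹ = dg ι F (d ∘ ⇑σ⁻¹) := by
  rw [mul_inv_eq_iff_eq_mul]
  apply Units.ext
  rw [Units.val_mul, Units.val_mul, lg_val, dg_val, dg_val]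
  ext a b
  rw [mul_diagonal, diagonal_mul]
  by_cases h : g.1 a b = 0
  · rw [h, mul_zero, zero_mul]
  · have h1 := hg a b h
    rw [mul_comm]
    congr 2
    rw [Function.comp_apply, h1]
    exact congrArg d (σ.symm_apply_apply b).symm

theorem card_TT_coprime [Finite F] {p : ℕ} [hp : Fact p.Prime] [CharP F p] : (Nat.card (TT ι F)).Coprime p := by
  classical
  have := Fintype.ofFinite F
  have e : (ι → Fˣ) ≃ TT ι F := (MonoidHom.ofInjective dg_inj).toEquiv
  rw [← Nat.card_congr e, Nat.card_pi, Finset.prod_const]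
  refine Nat.Coprime.pow_left _ ?_
  rw [Nat.card_eq_fintype_card, Fintype.card_units]
  obtain ⟨k, -, hk⟩ := FiniteField.card F p
  rw [hk, Nat.coprime_comm, hp.out.coprime_iff_not_dvd]
  intro h
  have h1 : p ∣ p ^ (k : ℕ) := dvd_pow_self _ k.2.ne'
  have h2 : 1 ≤ p ^ (k : ℕ) := Nat.one_le_pow _ _ hp.out.pos
  have h3 : p ∣ 1 := by
    have := (Nat.dvd_sub h1 h)
    have e1 : p ^ (k : ℕ) - (p ^ (k : ℕ) - 1) = 1 := by omega
    rwa [e1] at this
  exact hp.out.one_lt.ne' (Nat.dvd_one.1 h3)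

end Mat

section Group

variable {n : ℕ} {F : Type*} [Field F]

/-- the root groups of `GL` -/
def XG (F : Type*) [Field F] (x : Fin n → ℤ) : Subgroup (GL (Fin (n + 1)) F) := (X F x).map lg

/-- the `n`-elements of `GL` -/
noncomputable def ng (n : ℕ) (F : Type*) [Field F] (i : Fin n) : GL (Fin (n + 1)) F := lg (ns n F i)

variable {W : Type*} [Group W] (cs : CoxeterSystem (cA n) W) {A : Fin n → Fin n → ℤ}
  (h : IsCartan (cA n) A)

theorem T_map_le : (T (Fin (n + 1)) F).map lg ≤ TT (Fin (n + 1)) F := by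
  rintro _ ⟨g, hg, rfl⟩
  have hg' : Mono 1 g := mem_T.1 hg
  refine ⟨fun i => Units.mk0 (g.1 i i) (hg'.apply_ne_zero i), ?_⟩
  apply Units.ext
  rw [dg_val, lg_val]
  ext a b
  rw [Matrix.diagonal_apply]
  by_cases hab : a = b
  · subst hab
    rw [if_pos rfl]
    rfl
  · rw [if_neg hab]
    by_contra h0
    exact hab (hg' a b (Ne.symm h0))

theorem rgd0 [Finite W] [Finite F] {p : ℕ} [Fact p.Prime] [CharP F p] :
    RGD cs h p ((T (Fin (n + 1)) F).map lg) (ng n F) (XG F) :=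
  rgd_map_of_ker_le_center (rgd cs h) lg (by
    rw [(MonoidHom.ker_eq_bot_iff _).2 lg_inj]
    exact bot_le)

theorem mem_XG {a b : Fin (n + 1)} (hab : a ≠ b) {g : GL (Fin (n + 1)) F} :
    g ∈ XG F (rtA a b) ↔ ∃ t : F, lg (tv a b t) = g := by
  unfold XG
  rw [X_rtA hab, Subgroup.mem_map]
  constructor
  · rintro ⟨_, ⟨t, rfl⟩, rfl⟩
    exact ⟨t, rfl⟩
  · rintro ⟨t, rfl⟩
    exact ⟨_, tv_mem_XX _ _ _, rfl⟩

theorem TT_conj {x : Fin n → ℤ} (hx : IsRoot cs h x) {t g : GL (Fin (n + 1)) F} (ht : t ∈ TT (Fin (n + 1)) F)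
    (hg : g ∈ XG F x) : t * g * t⁻¹ ∈ XG F x := by
  obtain ⟨a, b, hab, rfl⟩ := exists_of_isRoot cs h hx
  obtain ⟨s, rfl⟩ := (mem_XG hab).1 hg
  obtain ⟨d, rfl⟩ := ht
  rw [dg_conj_tv hab]
  exact (mem_XG hab).2 ⟨_, rfl⟩

/-- **the root group datum of `GL_{n+1}(F)`** -/
theorem rgl [Finite W] [Finite F] {p : ℕ} [Fact p.Prime] [CharP F p] :
    RGD cs h p (TT (Fin (n + 1)) F) (ng n F) (XG F) := by
  refine rgd_enlarge (rgd0 cs h) T_map_le (fun i => ?_) (fun x hx t ht => ?_) card_TT_coprime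
  · have key : ∀ g ∈ TT (Fin (n + 1)) F, ng n F i * g * (ng n F i)⁻¹ ∈ TT (Fin (n + 1)) F := by
      rintro _ ⟨d, rfl⟩
      exact ⟨_, (mono_conj_dg (mono_ns i) d).symm⟩
    have key' : ∀ g ∈ TT (Fin (n + 1)) F, (ng n F i)⁻¹ * g * ng n F i ∈ TT (Fin (n + 1)) F := by
      rintro _ ⟨d, rfl⟩
      have h1 := mono_conj_dg (mono_ns (F := F) i).inv d
      rw [map_inv, inv_inv] at h1
      exact ⟨_, h1.symm⟩
    rw [Subgroup.mem_normalizer_iff]
    refine fun g => ⟨key g, fun hg => ?_⟩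
    have h2 := key' _ hg
    have h3 : (ng n F i)⁻¹ * (ng n F i * g * (ng n F i)⁻¹) * ng n F i = g := by group
    rwa [h3] at h2
  · ext g
    rw [mem_cj]
    constructor
    · intro hg
      have h1 := TT_conj cs h hx ht hg
      have h2 : t * (t⁻¹ * g * t) * t⁻¹ = g := by group
      rwa [h2] at h1
    · intro hg
      have h1 := TT_conj cs h hx (inv_mem ht) hg
      rwa [inv_inv] at h1

theorem mem_GG_of_det {g : SpecialLinearGroup (Fin (n + 1)) F} : lg g ∈ GG cs h (TT (Fin (n + 1)) F) (XG F) := by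
  have h1 : g ∈ G1 cs h (X F) := by rw [G1_eq_top]; exact Subgroup.mem_top _
  have h2 : lg g ∈ (G1 cs h (X F)).map lg := Subgroup.mem_map_of_mem _ h1
  rw [← G1_map] at h2
  exact (le_sup_right : _ ≤ GG cs h (TT (Fin (n + 1)) F) (XG F)) h2

/-- the root groups and the torus generate `GL_{n+1}(F)` -/
theorem gg_top : GG cs h (TT (Fin (n + 1)) F) (XG F) = ⊤ := by
  rw [eq_top_iff]
  intro g _
  let d : Fin (n + 1) → Fˣ := Function.update 1 0 (GeneralLinearGroup.det g)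
  have hd : (dg (Fin (n + 1)) F d).1.det = g.1.det := by
    rw [dg_val, det_diagonal, Finset.prod_eq_single (0 : Fin (n + 1))]
    · change ((Function.update (1 : Fin (n + 1) → Fˣ) 0 (GeneralLinearGroup.det g) 0 : Fˣ) : F) = _
      rw [Function.update_self]
      rfl
    · intro i _ hi
      change ((Function.update (1 : Fin (n + 1) → Fˣ) 0 (GeneralLinearGroup.det g) i : Fˣ) : F) = _
      rw [Function.update_of_ne hi]
      rfl
    · intro hi
      exact absurd (Finset.mem_univ _) hi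
  have h1 : ((dg (Fin (n + 1)) F d)⁻¹ * g).1.det = 1 := by
    rw [Units.val_mul, det_mul]
    have h2 : ((dg (Fin (n + 1)) F d)⁻¹).1.det * (dg (Fin (n + 1)) F d).1.det = 1 := by
      rw [← det_mul, ← Units.val_mul, inv_mul_cancel, Units.val_one, det_one]
    rwa [hd] at h2
  have h3 : g = dg (Fin (n + 1)) F d * lg ⟨_, h1⟩ := by
    have h4 : lg ⟨_, h1⟩ = (dg (Fin (n + 1)) F d)⁻¹ * g := Units.ext rfl
    rw [h4, mul_inv_cancel_left]
  rw [h3]
  exact mul_mem ((le_sup_left : TT (Fin (n + 1)) F ≤ GG cs h (TT (Fin (n + 1)) F) (XG F)) ⟨d, rfl⟩)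
    (mem_GG_of_det cs h)

theorem XG_sr {i : Fin n} {g : GL (Fin (n + 1)) F} : g ∈ XG F (sr i) ↔ ∃ t : F, lg (tv i.castSucc i.succ t) = g := by
  rw [← rtA_sr, mem_XG (Fin.castSucc_lt_succ).ne]

theorem cs_ne (i : Fin n) : i.castSucc ≠ i.succ := (Fin.castSucc_lt_succ).ne

theorem lg_tv_apply {a b : Fin (n + 1)} (hab : a ≠ b) (t : F) : (lg (tv a b t)).1 a b = t := by
  rw [lg_val, tv_val hab, Matrix.add_apply, Matrix.one_apply_ne hab, Matrix.single_apply_same, zero_add]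

/-- the coordinate of a simple root group -/
def xc (i : Fin n) : ↥(XG F (sr i : Fin n → ℤ)) →* Multiplicative F where
  toFun u := Multiplicative.ofAdd ((u : GL (Fin (n + 1)) F).1 i.castSucc i.succ)
  map_one' := by
    change Multiplicative.ofAdd ((1 : Matrix (Fin (n + 1)) (Fin (n + 1)) F) i.castSucc i.succ) = 1
    rw [Matrix.one_apply_ne (cs_ne i)]
    rfl
  map_mul' u v := by
    obtain ⟨s, hs⟩ := XG_sr.1 u.2
    obtain ⟨t, ht⟩ := XG_sr.1 v.2
    rw [Subgroup.coe_mul, ← hs, ← ht, ← map_mul, ← tv_add, lg_tv_apply (cs_ne i), lg_tv_apply (cs_ne i),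
      lg_tv_apply (cs_ne i)]
    rfl

theorem xc_apply {i : Fin n} {t : F} (hm : lg (tv i.castSucc i.succ t) ∈ XG F (sr i : Fin n → ℤ)) :
    xc i ⟨lg (tv i.castSucc i.succ t), hm⟩ = Multiplicative.ofAdd t := by
  change Multiplicative.ofAdd ((lg (tv i.castSucc i.succ t)).1 i.castSucc i.succ) = _
  rw [lg_tv_apply (cs_ne i)]

theorem xc_eq_one {i : Fin n} {u : ↥(XG F (sr i : Fin n → ℤ))} (hu : xc i u = 1) : u = 1 := by
  obtain ⟨u, hu'⟩ := u
  obtain ⟨t, rfl⟩ := XG_sr.1 hu'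
  rw [xc_apply] at hu
  have h1 : t = 0 := congrArg Multiplicative.toAdd hu
  apply Subtype.ext
  change lg (tv i.castSucc i.succ t) = 1
  rw [h1, tv_zero, map_one]

/-- the diagonal entries -/
noncomputable def ed (ι F : Type*) [Field F] [DecidableEq ι] [Fintype ι] : ↥(TT ι F) ≃* (ι → Fˣ) :=
  (MonoidHom.ofInjective dg_inj).symm

theorem dg_ed {ι : Type*} [DecidableEq ι] [Fintype ι] (t : ↥(TT ι F)) : dg ι F (ed ι F t) = t :=
  congrArg Subtype.val ((MonoidHom.ofInjective (dg_inj (ι := ι) (F := F))).apply_symm_apply t)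

theorem ed_dg {ι : Type*} [DecidableEq ι] [Fintype ι] (d : ι → Fˣ) (hm : dg ι F d ∈ TT ι F) :
    ed ι F ⟨dg ι F d, hm⟩ = d :=
  (MonoidHom.ofInjective (dg_inj (ι := ι) (F := F))).symm_apply_apply d

/-- the simple roots on the torus -/
noncomputable def ac (n : ℕ) (F : Type*) [Field F] (i : Fin n) : ↥(TT (Fin (n + 1)) F) →* Fˣ where
  toFun t := ed _ F t i.castSucc * (ed _ F t i.succ)⁻¹
  map_one' := by rw [map_one]; simp
  map_mul' s t := by
    rw [map_mul, Pi.mul_apply, Pi.mul_apply, mul_inv]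
    exact mul_mul_mul_comm _ _ _ _

/-- **the coordinates of `GL_{n+1}(F)`** -/
noncomputable def dgl (n : ℕ) (F : Type*) [Field F] :
    Adj (TT (Fin (n + 1)) F) (XG F) (fun _ : Fin n => F) where
  x := xc
  a := ac n F
  surjX i s := ⟨⟨lg (tv i.castSucc i.succ (Multiplicative.toAdd s)), XG_sr.2 ⟨_, rfl⟩⟩, xc_apply _⟩
  act i t u hu := by
    obtain ⟨u, hu'⟩ := u
    obtain ⟨s, rfl⟩ := XG_sr.1 hu'
    have h1 : (t : GL (Fin (n + 1)) F) * lg (tv i.castSucc i.succ s) * (t : GL (Fin (n + 1)) F)⁻¹ =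
        lg (tv i.castSucc i.succ ((ed _ F t i.castSucc : F) * s * ((ed _ F t i.succ)⁻¹ : Fˣ).1)) := by
      rw [← dg_conj_tv (cs_ne i), dg_ed]
    change ((t : GL (Fin (n + 1)) F) * lg (tv i.castSucc i.succ s) * (t : GL (Fin (n + 1)) F)⁻¹).1 i.castSucc i.succ =
      ((ed _ F t i.castSucc * (ed _ F t i.succ)⁻¹ : Fˣ) : F) * (lg (tv i.castSucc i.succ s)).1 i.castSucc i.succ
    rw [h1, lg_tv_apply (cs_ne i), lg_tv_apply (cs_ne i), Units.val_mul]
    ring
  lin i ψ u hu := by rw [xc_eq_one hu, map_one]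
  surjT c := by
    refine ⟨⟨dg _ F (Fin.partialProd c)⁻¹, dg_mem _⟩, fun i => ?_⟩
    change ed _ F ⟨dg _ F (Fin.partialProd c)⁻¹, dg_mem _⟩ i.castSucc *
      (ed _ F ⟨dg _ F (Fin.partialProd c)⁻¹, dg_mem _⟩ i.succ)⁻¹ = c i
    rw [ed_dg, Pi.inv_apply, Pi.inv_apply, inv_inv, Fin.partialProd_succ, inv_mul_cancel_left]
  ker i t ht u hu := by
    obtain ⟨s, rfl⟩ := XG_sr.1 hu
    have ht' : ed _ F t i.castSucc * (ed _ F t i.succ)⁻¹ = 1 := ht
    have h1 : (t : GL (Fin (n + 1)) F) * lg (tv i.castSucc i.succ s) * (t : GL (Fin (n + 1)) F)⁻¹ =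
        lg (tv i.castSucc i.succ ((ed _ F t i.castSucc : F) * s * ((ed _ F t i.succ)⁻¹ : Fˣ).1)) := by
      rw [← dg_conj_tv (cs_ne i), dg_ed]
    rw [← mul_inv_eq_iff_eq_mul, h1]
    congr 2
    have h2 : ((ed _ F t i.castSucc : F)) * ((ed _ F t i.succ)⁻¹ : Fˣ).1 = 1 := by
      rw [← Units.val_mul, ht', Units.val_one]
    rw [mul_assoc, mul_comm s, ← mul_assoc, h2, one_mul]

/-- the projection -/
abbrev pg (n : ℕ) (F : Type*) [Field F] : GL (Fin (n + 1)) F →* ProjGenLinGroup (Fin (n + 1)) F := ProjGenLinGroup.mk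

theorem ed_const {t : ↥(TT (Fin (n + 1)) F)} (ht : ∀ i, ac n F i t = 1) (j : Fin (n + 1)) :
    ed _ F t j = ed _ F t 0 := by
  induction j using Fin.induction with
  | zero => rfl
  | succ i ih =>
    have h1 : ed _ F t i.castSucc * (ed _ F t i.succ)⁻¹ = 1 := ht i
    rw [← ih]
    exact (mul_inv_eq_one.1 h1).symm

/-- **the kernel of the projection** -/
theorem ker_gl : Ker (dgl n F) (pg n F) where
  surj := ProjGenLinGroup.mk_surjective
  mem z hz := by
    have h1 : z ∈ Subgroup.center (GL (Fin (n + 1)) F) := ProjGenLinGroup.mk_eq_one.1 hz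
    rw [GeneralLinearGroup.center_eq_range_scalar] at h1
    obtain ⟨c, rfl⟩ := h1
    refine ⟨fun _ => c, ?_⟩
    apply Units.ext
    rfl
  ctr z hz g := by
    have h1 : z ∈ Subgroup.center (GL (Fin (n + 1)) F) := ProjGenLinGroup.mk_eq_one.1 hz
    exact (Subgroup.mem_center_iff.1 h1 g).symm
  of t ht := by
    have h1 : ed _ F t = fun _ => ed _ F t 0 := funext fun j => ed_const ht j
    have h2 := dg_ed t
    rw [h1] at h2
    rw [← h2]
    have h3 : dg (Fin (n + 1)) F (fun _ => ed _ F t 0) = GeneralLinearGroup.scalar _ (ed _ F t 0) := by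
      apply Units.ext
      rfl
    rw [h3]
    exact ProjGenLinGroup.mk_scalar _

/-- the transpose -/
def trp (g : GL (Fin (n + 1)) F) : GL (Fin (n + 1)) F :=
  ⟨g.1ᵀ, (g⁻¹).1ᵀ, by rw [← transpose_mul, ← Units.val_mul, inv_mul_cancel, Units.val_one, transpose_one],
    by rw [← transpose_mul, ← Units.val_mul, mul_inv_cancel, Units.val_one, transpose_one]⟩

/-- **the anti-automorphism** -/
theorem anti_gl : H92.GG.Anti cs h (TT (Fin (n + 1)) F) (XG F) trp where
  mul x y := Units.ext (by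
    change (x.1 * y.1)ᵀ = y.1ᵀ * x.1ᵀ
    rw [transpose_mul])
  invo x := Units.ext (by
    change x.1ᵀᵀ = x.1
    rw [transpose_transpose])
  root x hx g hg := by
    obtain ⟨a, b, hab, rfl⟩ := exists_of_isRoot cs h hx
    obtain ⟨s, rfl⟩ := (mem_XG hab).1 hg
    rw [rtA_neg, mem_XG hab.symm]
    refine ⟨s, Units.ext ?_⟩
    change (tv b a s).1 = (tv a b s).1ᵀ
    rw [tv_val hab, tv_val hab.symm, transpose_add, transpose_one, transpose_single]
  tor t ht := by
    obtain ⟨d, rfl⟩ := ht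
    exact Units.ext (diagonal_transpose _)

end Group

end Cfsg.Agent.H40.PGL
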